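import Mathlib
import Cfsg.Agent.Lib.Helper55.OEll.Defs
import Cfsg.Agent.Lib.Helper37.OHyp.Geom
import Cfsg.Agent.Lib.Helper1.OHyp.Sum

/-!
# OELL (S5993), package [ELLISO]

Two nondegenerate subspaces of the same even dimension which are both not of plus type are
isometric (finite field of odd characteristic).
-/

set_option autoImplicit false
open scoped MatrixGroups
open Matrix

namespace Cfsg.Agent.Lib.Helper24.OEll

open Cfsg.Agent.Lib.Helper23.OHyp Cfsg.Agent.Lib.Helper55.OEll Cfsg.Agent.Lib.Helper94 Cfsg.Geo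
  Module

universe u

section

variable {F : Type u} [Field F] {ι : Type} [Fintype ι] [DecidableEq ι] {Q : (ι → F) → F}

/-- normal form: an orthogonal family `y, v₁, …, vₙ` with `Q y ≠ 0` and `Q vᵢ = 1` -/
theorem exists_normal_fam [Fintype F] (hQ : IsNondegenerateQuadraticForm Q) (h2 : (2 : F) ≠ 0) :
    ∀ (n : ℕ) (C : Submodule F (ι → F)), Nd Q C → finrank F C = n + 1 →
      ∃ (y : ι → F) (v : Fin n → (ι → F)), y ∈ C ∧ (∀ i, v i ∈ C) ∧ Q y ≠ 0 ∧
        (∀ i, Q (v i) = 1) ∧ (∀ i, pol Q y (v i) = 0) ∧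
        (∀ i j, i ≠ j → pol Q (v i) (v j) = 0) := by
  intro n
  induction n with
  | zero =>
    intro C hC hdim
    have hne : C ≠ ⊥ := by
      rintro rfl
      rw [finrank_bot] at hdim
      omega
    obtain ⟨f, hfC, hf⟩ := exists_nonsingular_mem C hC hne
    exact ⟨f, fun i => i.elim0, hfC, fun i => i.elim0, hf, fun i => i.elim0,
      fun i => i.elim0, fun i => i.elim0⟩
  | succ n ih =>
    intro C hC hdim
    obtain ⟨w, hwC, hw⟩ := Cfsg.Agent.Lib.Helper37.OHyp.exists_mem_Q_eq hQ h2 C hC (by omega) 1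
    have hw0 : Q w ≠ 0 := by rw [hw]; exact one_ne_zero
    have hC1 : Nd Q (perpIn hQ C w) := perpIn_nondeg hQ h2 C hC w hwC hw0
    have hd1 : finrank F (perpIn hQ C w) = n + 1 := by
      have := Cfsg.Agent.Lib.Helper37.OHyp.finrank_perpIn hQ h2 C w hwC hw0
      omega
    obtain ⟨y, v, hy, hv, hQy, hQv, hyv, hvv⟩ := ih (perpIn hQ C w) hC1 hd1
    have hyw := (mem_perpIn hQ C w y).mp hy
    have hvw := fun i => (mem_perpIn hQ C w (v i)).mp (hv i)
    refine ⟨y, Fin.cons w v, hyw.1, ?_, hQy, ?_, ?_, ?_⟩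
    · intro i
      refine Fin.cases ?_ (fun i => ?_) i
      · simpa using hwC
      · simpa using (hvw i).1
    · intro i
      refine Fin.cases ?_ (fun i => ?_) i
      · simpa using hw
      · simpa using hQv i
    · intro i
      refine Fin.cases ?_ (fun i => ?_) i
      · simpa using hyw.2
      · simpa using hyv i
    · intro i j
      refine Fin.cases ?_ (fun i => ?_) i
      · refine Fin.cases ?_ (fun j => ?_) j
        · intro h; exact absurd rfl h
        · intro _
          simp only [Fin.cons_zero, Fin.cons_succ]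
          rw [pol_comm]; exact (hvw j).2
      · refine Fin.cases ?_ (fun j => ?_) j
        · intro _
          simp only [Fin.cons_zero, Fin.cons_succ]
          exact (hvw i).2
        · intro h
          simp only [Fin.cons_succ]
          exact hvv i j (fun h' => h (by rw [h']))

/-- the family `Fin.cons y v` of a normal form -/
theorem cons_fam (hQ : IsNondegenerateQuadraticForm Q) (h2 : (2 : F) ≠ 0) {n : ℕ} (y : ι → F)
    (v : Fin n → (ι → F)) (C : Submodule F (ι → F)) (hy : y ∈ C) (hv : ∀ i, v i ∈ C)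
    (hQy : Q y ≠ 0) (hQv : ∀ i, Q (v i) = 1) (hyv : ∀ i, pol Q y (v i) = 0)
    (hvv : ∀ i j, i ≠ j → pol Q (v i) (v j) = 0) (hdim : finrank F C = n + 1) :
    (∀ i, Q ((Fin.cons y v : Fin (n + 1) → (ι → F)) i) ≠ 0) ∧
    (∀ i j, i ≠ j → pol Q ((Fin.cons y v : Fin (n + 1) → (ι → F)) i)
      ((Fin.cons y v : Fin (n + 1) → (ι → F)) j) = 0) ∧
    (∀ i, (Fin.cons y v : Fin (n + 1) → (ι → F)) i ∈ C) ∧
    Submodule.span F (Set.range (Fin.cons y v : Fin (n + 1) → (ι → F))) = C := by
  have h1 : ∀ i, Q ((Fin.cons y v : Fin (n + 1) → (ι → F)) i) ≠ 0 := by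
    intro i
    refine Fin.cases ?_ (fun i => ?_) i
    · simpa using hQy
    · simp only [Fin.cons_succ]; rw [hQv]; exact one_ne_zero
  have h2' : ∀ i j, i ≠ j → pol Q ((Fin.cons y v : Fin (n + 1) → (ι → F)) i)
      ((Fin.cons y v : Fin (n + 1) → (ι → F)) j) = 0 := by
    intro i j
    refine Fin.cases ?_ (fun i => ?_) i
    · refine Fin.cases ?_ (fun j => ?_) j
      · intro h; exact absurd rfl h
      · intro _; simp only [Fin.cons_zero, Fin.cons_succ]; exact hyv j
    · refine Fin.cases ?_ (fun j => ?_) j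
      · intro _; simp only [Fin.cons_zero, Fin.cons_succ]; rw [pol_comm]; exact hyv i
      · intro h; simp only [Fin.cons_succ]; exact hvv i j (fun h' => h (by rw [h']))
  have h3 : ∀ i, (Fin.cons y v : Fin (n + 1) → (ι → F)) i ∈ C := by
    intro i
    refine Fin.cases ?_ (fun i => ?_) i
    · simpa using hy
    · simpa using hv i
  refine ⟨h1, h2', h3, ?_⟩
  have hli := Cfsg.Agent.Lib.Helper37.OHyp.orth_linearIndependent hQ h2 _ h1 h2'
  apply Submodule.eq_of_le_of_finrank_eq
  · rw [Submodule.span_le]; rintro _ ⟨i, rfl⟩; exact h3 i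
  · rw [finrank_span_eq_card hli, Fintype.card_fin, hdim]

/-- the value of `Q` on a combination of an orthogonal family -/
theorem Q_orth_sum (hQ : IsNondegenerateQuadraticForm Q) {n : ℕ} (v : Fin n → (ι → F))
    (ho : ∀ i j, i ≠ j → pol Q (v i) (v j) = 0) (a : Fin n → F) :
    Q (∑ i, a i • v i) = ∑ i, a i ^ 2 * Q (v i) := by
  have key : ∀ s : Finset (Fin n), Q (∑ i ∈ s, a i • v i) = ∑ i ∈ s, a i ^ 2 * Q (v i) := by
    intro s
    induction s using Finset.induction_on with
    | empty => simp [Q_zero hQ]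
    | insert j s hj ih =>
      rw [Finset.sum_insert hj, Finset.sum_insert hj, Q_add (Q := Q), Q_smul hQ, ih]
      have h0 : pol Q (a j • v j) (∑ i ∈ s, a i • v i) = 0 := by
        rw [← Cfsg.Agent.Lib.Helper37.OHyp.polB_apply hQ, map_sum]
        apply Finset.sum_eq_zero
        intro i hi
        simp only [map_smul, LinearMap.smul_apply, smul_eq_mul,
          Cfsg.Agent.Lib.Helper37.OHyp.polB_apply]
        rw [ho j i (fun h => hj (h ▸ hi))]
        ring
      rw [h0, add_zero]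
  exact key Finset.univ

/-- two orthogonal families with the same norms spanning `W` and `W'` give an isometry -/
theorem iso_of_fams (hQ : IsNondegenerateQuadraticForm Q) (h2 : (2 : F) ≠ 0) {n : ℕ}
    (u u' : Fin (n + 1) → (ι → F)) (W W' : Submodule F (ι → F))
    (hu : ∀ i, Q (u i) ≠ 0) (huo : ∀ i j, i ≠ j → pol Q (u i) (u j) = 0) (huW : ∀ i, u i ∈ W)
    (hu' : ∀ i, Q (u' i) ≠ 0) (huo' : ∀ i j, i ≠ j → pol Q (u' i) (u' j) = 0)
    (huW' : ∀ i, u' i ∈ W')
    (hdim : finrank F W = n + 1) (hdim' : finrank F W' = n + 1)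
    (heq : ∀ i, Q (u i) = Q (u' i)) :
    ∃ e : W ≃ₗ[F] W', ∀ w : W, Q ((e w : W') : ι → F) = Q (w : ι → F) := by
  have hli := Cfsg.Agent.Lib.Helper37.OHyp.orth_linearIndependent hQ h2 u hu huo
  have hli' := Cfsg.Agent.Lib.Helper37.OHyp.orth_linearIndependent hQ h2 u' hu' huo'
  have hliW : LinearIndependent F (fun i => (⟨u i, huW i⟩ : W)) :=
    LinearIndependent.of_comp W.subtype (by simpa [Function.comp_def] using hli)
  have hliW' : LinearIndependent F (fun i => (⟨u' i, huW' i⟩ : W')) :=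
    LinearIndependent.of_comp W'.subtype (by simpa [Function.comp_def] using hli')
  let b : Basis (Fin (n + 1)) F W :=
    basisOfLinearIndependentOfCardEqFinrank hliW (by rw [Fintype.card_fin, hdim])
  let b' : Basis (Fin (n + 1)) F W' :=
    basisOfLinearIndependentOfCardEqFinrank hliW' (by rw [Fintype.card_fin, hdim'])
  have hb : ∀ i, ((b i : W) : ι → F) = u i := fun i => by
    show ((basisOfLinearIndependentOfCardEqFinrank hliW _ i : W) : ι → F) = u i
    rw [coe_basisOfLinearIndependentOfCardEqFinrank]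
  have hb' : ∀ i, ((b' i : W') : ι → F) = u' i := fun i => by
    show ((basisOfLinearIndependentOfCardEqFinrank hliW' _ i : W') : ι → F) = u' i
    rw [coe_basisOfLinearIndependentOfCardEqFinrank]
  refine ⟨b.equiv b' (Equiv.refl _), fun w => ?_⟩
  have hw : (w : ι → F) = ∑ i, b.repr w i • u i := by
    have h := congrArg (fun x : W => (x : ι → F)) (b.sum_repr w)
    simp only [Submodule.coe_sum, Submodule.coe_smul, hb] at h
    exact h.symm
  have hew : ((b.equiv b' (Equiv.refl _) w : W') : ι → F) = ∑ i, b.repr w i • u' i := by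
    have h := congrArg (fun x : W => ((b.equiv b' (Equiv.refl _) x : W') : ι → F))
      (b.sum_repr w)
    simp only [map_sum, map_smul, Basis.equiv_apply, Equiv.refl_apply, Submodule.coe_sum,
      Submodule.coe_smul, hb'] at h
    exact h.symm
  rw [hw, hew, Q_orth_sum hQ u huo, Q_orth_sum hQ u' huo']
  exact Finset.sum_congr rfl fun i _ => by rw [heq]

end

theorem pkgEllIso : PkgEllIso.{u} := by
  intro F _ _ ι _ _ Q hQ h2 W W' hW hW' hdim hev hnP hnP'
  classical
  obtain ⟨k, hk⟩ := hev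
  have hk0 : k ≠ 0 := by
    rintro rfl
    apply hnP
    refine ⟨⊥, bot_le, fun w hw => ?_, ?_⟩
    · rw [Submodule.mem_bot] at hw; rw [hw]; exact Q_zero hQ
    · rw [finrank_bot, hk]
  obtain ⟨n, hn⟩ : ∃ n, n + 1 = 2 * k := ⟨2 * k - 1, by omega⟩
  obtain ⟨y, v, hy, hv, hQy, hQv, hyv, hvv⟩ := exists_normal_fam hQ h2 n W hW (by omega)
  obtain ⟨y', v', hy', hv', hQy', hQv', hyv', hvv'⟩ :=
    exists_normal_fam hQ h2 n W' hW' (by omega)
  obtain ⟨hu, huo, huW, hspan⟩ := cons_fam hQ h2 y v W hy hv hQy hQv hyv hvv (by omega)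
  obtain ⟨hu', huo', huW', hspan'⟩ :=
    cons_fam hQ h2 y' v' W' hy' hv' hQy' hQv' hyv' hvv' (by omega)
  have hprod : ∀ (y : ι → F) (v : Fin n → (ι → F)), (∀ i, Q (v i) = 1) →
      ∏ i, (2 * Q ((Fin.cons y v : Fin (n + 1) → (ι → F)) i)) = 2 ^ (n + 1) * Q y := by
    intro y v hQv
    rw [Fin.prod_univ_succ]
    simp only [Fin.cons_zero, Fin.cons_succ, hQv, mul_one, Finset.prod_const, Finset.card_univ,
      Fintype.card_fin]
    ring
  have hns : ¬ IsSquare ((-1 : F) ^ k * 2 ^ (n + 1) * Q y) := by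
    intro h
    apply hnP
    have h3 := (Cfsg.Agent.Lib.Helper37.OHyp.orth_plus_iff hQ h2 k hn (Fin.cons y v) hu huo).mpr
      (by rw [hprod y v hQv, ← mul_assoc]; exact h)
    rwa [hspan] at h3
  have hns' : ¬ IsSquare ((-1 : F) ^ k * 2 ^ (n + 1) * Q y') := by
    intro h
    apply hnP'
    have h3 := (Cfsg.Agent.Lib.Helper37.OHyp.orth_plus_iff hQ h2 k hn (Fin.cons y' v') hu'
      huo').mpr (by rw [hprod y' v' hQv', ← mul_assoc]; exact h)
    rwa [hspan'] at h3
  have hc : ((-1 : F) ^ k * 2 ^ (n + 1)) ≠ 0 :=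
    mul_ne_zero (pow_ne_zero _ (neg_ne_zero.mpr one_ne_zero)) (pow_ne_zero _ h2)
  have hsq : IsSquare (((-1 : F) ^ k * 2 ^ (n + 1) * Q y) * ((-1 : F) ^ k * 2 ^ (n + 1) * Q y')) := by
    rw [Cfsg.Agent.Lib.Helper1.OHyp.isSquare_mul_iff_of_ne_zero (mul_ne_zero hc hQy)
      (mul_ne_zero hc hQy')]
    exact ⟨fun h => absurd h hns, fun h => absurd h hns'⟩
  obtain ⟨t, ht⟩ := hsq
  generalize (-1 : F) ^ k * 2 ^ (n + 1) = c at hc ht
  have hsy : (t / (c * Q y')) ^ 2 * Q y' = Q y := by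
    field_simp
    linear_combination (-1 : F) * ht
  have hy'' : (t / (c * Q y')) • y' ∈ W' := W'.smul_mem _ hy'
  have hQy'' : Q ((t / (c * Q y')) • y') = Q y := by rw [Q_smul hQ, hsy]
  have hQy''0 : Q ((t / (c * Q y')) • y') ≠ 0 := by rw [hQy'']; exact hQy
  have hyv'' : ∀ i, pol Q ((t / (c * Q y')) • y') (v' i) = 0 := fun i => by
    rw [pol_smul_left hQ, hyv', mul_zero]
  obtain ⟨hu'', huo'', huW'', -⟩ :=
    cons_fam hQ h2 ((t / (c * Q y')) • y') v' W' hy'' hv' hQy''0 hQv' hyv'' hvv' (by omega)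
  refine iso_of_fams hQ h2 (Fin.cons y v) (Fin.cons ((t / (c * Q y')) • y') v') W W' hu huo huW
    hu'' huo'' huW'' (by omega) (by omega) ?_
  intro i
  refine Fin.cases ?_ (fun i => ?_) i
  · simp only [Fin.cons_zero]; exact hQy''.symm
  · simp only [Fin.cons_succ]; rw [hQv, hQv']

end Cfsg.Agent.Lib.Helper24.OEll
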